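-- BG Section 11: two distinct fixed-point-free points of `B` (from 11.2(b) and 11.6(a)).
import Mathlib
import Cfsg.Prelude.Def_OddOrderLocal
import Cfsg.Agent.Lib.Helper75.BGUtil

set_option autoImplicit false

namespace Cfsg.Agent.Lib.Helper59.BG

theorem conj_sq_mem_of_odd {G : Type*} [Group G] [Finite G] (hodd : Odd (Nat.card G))
    (M : Subgroup G) (g : G) (h : g * g ∈ M) : g ∈ M := by
  have h1 : Odd (orderOf g) := Odd.of_dvd_nat hodd (orderOf_dvd_natCard g)
  obtain ⟨k, hk⟩ := h1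
  have h2 : (g * g) ^ (k + 1) = g := by
    have h3 : (g * g) ^ (k + 1) = g ^ (2 * k + 1) * g := by
      rw [← pow_two, ← pow_mul, ← pow_succ]
      congr 1
    rw [h3, ← hk, pow_orderOf_eq_one, one_mul]
  rw [← h2]
  exact Subgroup.pow_mem _ h _

theorem sec11_fpf_two {G : Type*} [Group G] [Finite G] (hodd : Odd (Nat.card G))
    (M : Subgroup G) (q : ℕ) [Fact q.Prime] (hq : q ∉ Cfsg.sigma M) (B B₀ : Subgroup G)
    (hBM : B ≤ M) (hBe : Cfsg.IsElementaryAbelian q B) (hB2 : Nat.card B = q ^ 2)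
    (hB₀ : B₀ ≤ B) (hB₀c : Nat.card B₀ = q) (hN : Subgroup.normalizer (B₀ : Set G) ≤ M)
    (h2b : ∀ g : G, g ∉ M → B ≤ M.map (MulAut.conj g).toMonoidHom →
      Cfsg.sigmaCore M ⊓
        Subgroup.centralizer ((B₀.map (MulAut.conj g).toMonoidHom : Subgroup G) : Set G) = ⊥)
    (P : Sylow q M) (hBP : B ≤ (P : Subgroup M).map M.subtype)
    (homega : ∀ x ∈ (P : Subgroup M).map M.subtype, x ^ q = 1 → x ∈ B) :
    ∃ B₁ B₂ : Subgroup G, B₁ ≤ B ∧ B₂ ≤ B ∧ Nat.card B₁ = q ∧ Nat.card B₂ = q ∧ B₁ ≠ B₂ ∧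
      Cfsg.sigmaCore M ⊓ Subgroup.centralizer (B₁ : Set G) = ⊥ ∧
      Cfsg.sigmaCore M ⊓ Subgroup.centralizer (B₂ : Set G) = ⊥ := by
  have hqp : q.Prime := Fact.out
  have hqM : q ∣ Nat.card M := by
    have h1 : Nat.card B ∣ Nat.card M := Subgroup.card_dvd_of_le hBM
    rw [hB2] at h1
    exact dvd_trans (dvd_pow_self q (by norm_num)) h1
  have hnot : ¬ Subgroup.normalizer ((((P : Subgroup M).map M.subtype : Subgroup G)) : Set G) ≤ M :=
    fun h => hq ⟨hqp, hqM, P, h⟩
  obtain ⟨g, hgN, hgM⟩ := SetLike.not_le_iff_exists.mp hnot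
  -- elements of the normalizer of `P` normalize `B`
  have hconj : ∀ x : G, x ∈ Subgroup.normalizer ((((P : Subgroup M).map M.subtype : Subgroup G)) : Set G) →
      B.map (MulAut.conj x).toMonoidHom ≤ B := by
    intro x hx y hy
    obtain ⟨b, hb, rfl⟩ := hy
    show x * b * x⁻¹ ∈ B
    apply homega
    · exact (Subgroup.mem_normalizer_iff.mp hx b).mp (hBP hb)
    · rw [conj_pow, hBe.2 b hb, mul_one, mul_inv_cancel]
  have hle : ∀ x : G, x ∈ Subgroup.normalizer ((((P : Subgroup M).map M.subtype : Subgroup G)) : Set G) →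
      B ≤ M.map (MulAut.conj x).toMonoidHom := by
    intro x hx
    have heq : B.map (MulAut.conj x).toMonoidHom = B :=
      Subgroup.eq_of_le_of_card_ge (hconj x hx)
        (by rw [Subgroup.card_map_of_injective (MulAut.conj x).injective])
    calc B = B.map (MulAut.conj x).toMonoidHom := heq.symm
      _ ≤ M.map (MulAut.conj x).toMonoidHom := Subgroup.map_mono hBM
  have hgg : g * g ∈ Subgroup.normalizer ((((P : Subgroup M).map M.subtype : Subgroup G)) : Set G) :=
    Subgroup.mul_mem _ hgN hgN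
  have hggM : g * g ∉ M := fun h => hgM (conj_sq_mem_of_odd hodd M g h)
  refine ⟨B₀.map (MulAut.conj g).toMonoidHom, B₀.map (MulAut.conj (g * g)).toMonoidHom,
    le_trans (Subgroup.map_mono hB₀) (hconj g hgN), le_trans (Subgroup.map_mono hB₀) (hconj _ hgg),
    ?_, ?_, ?_, h2b g hgM (hle g hgN), h2b (g * g) hggM (hle _ hgg)⟩
  · rw [Subgroup.card_map_of_injective (MulAut.conj g).injective, hB₀c]
  · rw [Subgroup.card_map_of_injective (MulAut.conj (g * g)).injective, hB₀c]
  · intro heq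
    apply hgM
    apply hN
    apply Cfsg.Agent.Lib.Helper75.BG.mem_normalizer_of_map_le
    -- `B₀ ≤ g B₀ g⁻¹`, hence equality
    have h1 : B₀ ≤ B₀.map (MulAut.conj g).toMonoidHom := by
      intro b hb
      have h2 : g * b * g⁻¹ ∈ B₀.map (MulAut.conj (g * g)).toMonoidHom := by
        rw [← heq]
        exact ⟨b, hb, rfl⟩
      obtain ⟨b', hb', hbb⟩ := h2
      have h3 : g * g * b' * (g * g)⁻¹ = g * b * g⁻¹ := hbb
      have h4 : b = g * b' * g⁻¹ := by
        have h5 : g * b' * g⁻¹ = g⁻¹ * (g * g * b' * (g * g)⁻¹) * g := by group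
        rw [h5, h3]; group
      rw [h4]
      exact ⟨b', hb', rfl⟩
    have h6 : B₀ = B₀.map (MulAut.conj g).toMonoidHom :=
      Subgroup.eq_of_le_of_card_ge h1
        (by rw [Subgroup.card_map_of_injective (MulAut.conj g).injective])
    exact le_of_eq h6.symm

end Cfsg.Agent.Lib.Helper59.BG
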